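import Cfsg.Agent.Helper28.Leech
import Cfsg.Agent.Helper3.Golay.Octads

/-!
Basic invariance properties of the lattice of the definitions: coordinate permutations from
the code's group, sign changes on codeword supports, and divisibility of the sum of squares.
-/

set_option autoImplicit false

namespace Cfsg.Agent.Helper3

open Cfsg Cfsg.Agent.Helper28

theorem zmod2_ne_zero_iff (a : ZMod 2) : a ≠ 0 ↔ a = 1 := by
  revert a
  decide

theorem zmod2_ite (a : ZMod 2) : (if a ≠ 0 then (1 : ZMod 2) else 0) = a := by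
  revert a
  decide

theorem LP_perm {x : GolayPt → ℤ} {m : ℤ} (h : LP golayCode x m) {σ : Equiv.Perm GolayPt}
    (hσ : σ ∈ M24) : LP golayCode (fun i => x (σ i)) m := by
  obtain ⟨hpar, hsum, ha⟩ := h
  refine ⟨fun i => hpar (σ i), ?_, ?_⟩
  · show ∑ i, x (σ i) ≡ 4 * m [ZMOD 8]
    rw [Equiv.sum_comp σ x]
    exact hsum
  · have h1 := (mem_M24_iff σ⁻¹).1 (inv_mem hσ) _ ha
    simp only [inv_inv] at h1
    exact h1

theorem sum_ite_hamming (v : GolayPt → ZMod 2) :
    ∑ i, (if v i ≠ 0 then (1 : ℤ) else 0) = (hammingNorm v : ℤ) := by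
  rw [Finset.sum_boole]
  rfl

theorem orth_even {v w : GolayPt → ZMod 2} (hv : v ∈ golayCode) (hw : w ∈ golayCode) :
    ∃ k : ℤ, ∑ i, (if v i * w i ≠ 0 then (1 : ℤ) else 0) = 2 * k := by
  rw [Finset.sum_boole]
  have h3 : ((Finset.univ.filter (fun i => v i * w i ≠ 0)).card : ZMod 2) = ∑ i, v i * w i := by
    rw [← Finset.sum_boole]
    apply Finset.sum_congr rfl
    intro i _
    exact zmod2_ite _
  rw [golay_orth v w hv hw] at h3
  obtain ⟨k, hk⟩ := (ZMod.natCast_eq_zero_iff _ 2).1 h3
  exact ⟨k, by rw [hk]; push_cast; ring⟩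

theorem LP_sign {x : GolayPt → ℤ} {m : ℤ} (h : LP golayCode x m) {v : GolayPt → ZMod 2}
    (hv : v ∈ golayCode) :
    LP golayCode (fun i => if i ∈ support₂ v then -x i else x i) m := by
  obtain ⟨hpar, hsum, ha⟩ := h
  refine ⟨?_, ?_, ?_⟩
  · intro i
    have := hpar i
    show (if i ∈ support₂ v then -x i else x i) ≡ m [ZMOD 2]
    unfold Int.ModEq at *
    split_ifs <;> omega
  · show ∑ i, (if i ∈ support₂ v then -x i else x i) ≡ 4 * m [ZMOD 8]
    have hP : ∀ i, (8 : ℤ) ∣ (if i ∈ support₂ v then -x i else x i) -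
        (x i - (2 * m) * (if v i ≠ 0 then (1 : ℤ) else 0) -
          4 * (if v i * halfWord x m i ≠ 0 then (1 : ℤ) else 0)) := by
      intro i
      have hp := hpar i
      unfold Int.ModEq at hp
      by_cases hvi : v i = 0
      · have h1 : i ∉ support₂ v := by rw [mem_support₂]; simp [hvi]
        rw [if_neg h1, if_neg (by simp [hvi]), if_neg (by simp [hvi])]
        simp
      · have h1 : i ∈ support₂ v := by rw [mem_support₂]; exact hvi
        have hv1 : v i = 1 := (zmod2_ne_zero_iff _).1 hvi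
        rw [if_pos h1, if_pos hvi, hv1, one_mul]
        by_cases hwi : halfWord x m i = 0
        · rw [if_neg (by simp [hwi])]
          simp only [halfWord] at hwi
          rw [intCast_zmod2_eq_zero] at hwi
          omega
        · rw [if_pos hwi]
          simp only [halfWord] at hwi
          rw [intCast_zmod2_eq_zero] at hwi
          omega
    have hS := Finset.dvd_sum (s := Finset.univ) (fun i _ => hP i)
    simp only [Finset.sum_sub_distrib, ← Finset.mul_sum] at hS
    obtain ⟨k, hk⟩ := orth_even hv ha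
    rw [sum_ite_hamming, hk] at hS
    unfold Int.ModEq at *
    rcases golay_hammingNorm v hv with h | h | h | h | h <;> rw [h] at hS <;>
      push_cast at hS <;> omega
  · have e : halfWord (fun i => if i ∈ support₂ v then -x i else x i) m =
        halfWord x m + (m : ZMod 2) • v := by
      funext i
      have hp := hpar i
      unfold Int.ModEq at hp
      simp only [halfWord, Pi.add_apply, Pi.smul_apply, smul_eq_mul]
      by_cases hvi : v i = 0
      · have h1 : i ∉ support₂ v := by rw [mem_support₂]; simp [hvi]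
        rw [if_neg h1, hvi, mul_zero, add_zero]
      · have h1 : i ∈ support₂ v := by rw [mem_support₂]; exact hvi
        have hv1 : v i = 1 := (zmod2_ne_zero_iff _).1 hvi
        rw [if_pos h1, hv1, mul_one, ← Int.cast_add, ZMod.intCast_eq_intCast_iff]
        unfold Int.ModEq
        push_cast
        omega
    rw [e]
    exact golayCode.add_mem ha (golayCode.smul_mem _ hv)

theorem leech_perm (σ : Equiv.Perm GolayPt) (hσ : σ ∈ M24) (x : GolayPt → ℤ)
    (hx : x ∈ leechLattice) : (fun i => x (σ i)) ∈ leechLattice := by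
  obtain ⟨m, hm⟩ := (mem_leechLattice_iff x).1 hx
  exact (mem_leechLattice_iff _).2 ⟨m, LP_perm hm hσ⟩

theorem leech_sign (c : Finset GolayPt)
    (hc : c ∈ supports (golayCode : Set (GolayPt → ZMod 2))) (x : GolayPt → ℤ)
    (hx : x ∈ leechLattice) : (fun i => if i ∈ c then -x i else x i) ∈ leechLattice := by
  obtain ⟨v, hv, rfl⟩ := hc
  obtain ⟨m, hm⟩ := (mem_leechLattice_iff x).1 hx
  exact (mem_leechLattice_iff _).2 ⟨m, LP_sign hm hv⟩

theorem LP_norm_dvd {x : GolayPt → ℤ} {m : ℤ} (h : LP golayCode x m) (h01 : m = 0 ∨ m = 1) :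
    (16 : ℤ) ∣ ∑ i, x i ^ 2 := by
  obtain ⟨hpar, hsum, ha⟩ := h
  have hw := golay_hammingNorm _ ha
  rcases h01 with rfl | rfl
  · have hd : ∀ i, (16 : ℤ) ∣ x i ^ 2 - 4 * (if halfWord x 0 i ≠ 0 then (1 : ℤ) else 0) := by
      intro i
      have hp := hpar i
      unfold Int.ModEq at hp
      by_cases hi : halfWord x 0 i = 0
      · rw [if_neg (by simp [hi])]
        simp only [halfWord] at hi
        rw [intCast_zmod2_eq_zero] at hi
        obtain ⟨r, hr⟩ : ∃ r, x i = 4 * r := ⟨x i / 4, by omega⟩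
        exact ⟨r ^ 2, by rw [hr]; ring⟩
      · rw [if_pos hi]
        simp only [halfWord] at hi
        rw [intCast_zmod2_eq_zero] at hi
        obtain ⟨r, hr⟩ : ∃ r, x i = 4 * r + 2 := ⟨(x i - 2) / 4, by omega⟩
        exact ⟨r ^ 2 + r, by rw [hr]; ring⟩
    have hS := Finset.dvd_sum (s := Finset.univ) (fun i _ => hd i)
    simp only [Finset.sum_sub_distrib, ← Finset.mul_sum] at hS
    rw [sum_ite_hamming] at hS
    rcases hw with h | h | h | h | h <;> rw [h] at hS <;> push_cast at hS <;> omega
  · have hd : ∀ i, (16 : ℤ) ∣ x i ^ 2 -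
        (2 * x i - 1 + 4 * (if halfWord x 1 i ≠ 0 then (1 : ℤ) else 0)) := by
      intro i
      have hp := hpar i
      unfold Int.ModEq at hp
      by_cases hi : halfWord x 1 i = 0
      · rw [if_neg (by simp [hi])]
        simp only [halfWord] at hi
        rw [intCast_zmod2_eq_zero] at hi
        obtain ⟨r, hr⟩ : ∃ r, x i = 4 * r + 1 := ⟨(x i - 1) / 4, by omega⟩
        exact ⟨r ^ 2, by rw [hr]; ring⟩
      · rw [if_pos hi]
        simp only [halfWord] at hi
        rw [intCast_zmod2_eq_zero] at hi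
        obtain ⟨r, hr⟩ : ∃ r, x i = 4 * r + 3 := ⟨(x i - 3) / 4, by omega⟩
        exact ⟨r ^ 2 + r, by rw [hr]; ring⟩
    have hS := Finset.dvd_sum (s := Finset.univ) (fun i _ => hd i)
    simp only [Finset.sum_sub_distrib, Finset.sum_add_distrib, ← Finset.mul_sum,
      Finset.sum_const, Finset.card_univ, card_golayPt, nsmul_eq_mul, mul_one] at hS
    rw [sum_ite_hamming] at hS
    unfold Int.ModEq at hsum
    rcases hw with h | h | h | h | h <;> rw [h] at hS <;> push_cast at hS <;> omega

theorem leech_norm_dvd (x : GolayPt → ℤ) (hx : x ∈ leechLattice) : (16 : ℤ) ∣ sqNorm x := by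
  obtain ⟨m, hm⟩ := (mem_leechLattice_iff x).1 hx
  have hm' := LP_mod golayCode one_mem_golay hm
  exact LP_norm_dvd hm' (Int.emod_two_eq_zero_or_one m)

end Cfsg.Agent.Helper3
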